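import Cfsg.Agent.H14.J3Mult.TwoChecks
import Cfsg.Agent.H14.J3Mult.ThreeChecks
import Cfsg.Agent.H82.Mult
import Cfsg.Agent.H64.StemBasic

/-!
The Schur multiplier of J3 has order three.
-/

set_option autoImplicit false

namespace Cfsg.Agent.H14.J3Mult

open Cfsg.Spor Cfsg.Agent.H15.J3 Cfsg.Agent.H12.CExt Cfsg.Agent.H14
open scoped commutatorElement

universe u

/-- The chunks of an edge check. -/
theorem allOK_single {D : Graph} (h : chunkOK D 0 D.n = true) : AllOK D :=
  allOK_of_chunks (lens := [(0, D.n)]) (by simpa using h) (by simp)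

section

variable {F : Type u} [Field F] [Fintype F] {ω : F} (hG : Good F ω)
include hG

theorem commutator_J3 : commutator (J3 F ω) = ⊤ := by
  have := isSimple_J3 hG
  rcases (commutator_def (J3 F ω) ▸ Subgroup.commutator_normal (⊤ : Subgroup (J3 F ω)) ⊤ :
      (commutator (J3 F ω)).Normal).eq_bot_or_eq_top with h | h
  · exfalso
    have hab : ∀ a b : J3 F ω, a * b = b * a := fun a b => by
      have : ⁅a, b⁆ ∈ commutator (J3 F ω) :=
        Subgroup.commutator_mem_commutator (Subgroup.mem_top a) (Subgroup.mem_top b)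
      rw [h, Subgroup.mem_bot, commutatorElement_eq_one_iff_mul_comm] at this
      exact this
    let : CommGroup (J3 F ω) := { (inferInstance : Group (J3 F ω)) with mul_comm := hab }
    have : Finite (J3 F ω) := Nat.finite_of_card_ne_zero (by rw [card_J3 hG]; decide)
    have := IsSimpleGroup.prime_card (α := J3 F ω)
    rw [card_J3 hG] at this
    norm_num at this
  · exact h

theorem pow_dvd_bound {Γ : Type u} [Group Γ] [Finite Γ] {σ : Γ →* J3 F ω}
    (hσ : Cfsg.IsStemExtension σ) {p : ℕ} (hp : p.Prime) (hK : IsPGroup p σ.ker) (s k : ℕ)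
    (hk : Nat.card (J3 F ω) = p ^ s * k) (hpk : ¬ p ∣ k) :
    ∀ z ∈ σ.ker, z ^ p ^ s = 1 := by
  intro z hz
  have : Finite (J3 F ω) := Nat.finite_of_card_ne_zero (by rw [card_J3 hG]; decide)
  have h1 := pow_card_eq_one hσ (commutator_J3 hG) z
  obtain ⟨i, hi⟩ := hK ⟨z, hz⟩
  have hi' : z ^ p ^ i = 1 := by simpa using congrArg Subtype.val hi
  rw [hk, pow_mul] at h1
  refine orderOf_eq_one_iff.mp (Nat.eq_one_of_dvd_coprimes
    (Nat.Coprime.pow_left i (hp.coprime_iff_not_dvd.mpr hpk)) ?_ (orderOf_dvd_of_pow_eq_one h1))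
  refine orderOf_dvd_of_pow_eq_one ?_
  rw [← pow_mul, mul_comm, pow_mul, hi', one_pow]

theorem setup_three : ∃ x y : J3 F ω, PLocal.Setup Three.graph Three.loc 3 x y := by
  obtain ⟨hA, hB, hwA, hwB, eA, eB⟩ := Three.gens_ok
  obtain ⟨x, hx⟩ := exists_rep hG hwA eA
  obtain ⟨y, hy⟩ := exists_rep hG hwB eB
  have : Fact (Nat.Prime 3) := ⟨by norm_num⟩
  have hsep := Three.sep_ok
  simp only [sepOK, List.all_eq_true, List.mem_range] at hsep
  refine ⟨x, y, setup_of_checks hG hx hy hA hB Three.rels_ok (allOK_single Three.chunk_all)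
    Three.shape_ok Three.reps_ok (fun v hv e he hne => ?_) Three.close_ok (k := 25840)
    ((card_J3 hG).trans rfl) (by norm_num)⟩
  have h := hsep v hv e he
  rw [Nat.zero_add, if_neg (by simpa using hne)] at h
  simpa using h

theorem three_le {Γ : Type u} [Group Γ] [Finite Γ] {σ : Γ →* J3 F ω}
    (hσ : Cfsg.IsStemExtension σ) (hK : IsPGroup 3 σ.ker) : Nat.card σ.ker ≤ 3 := by
  have : Fact (Nat.Prime 3) := ⟨by norm_num⟩
  have : Finite (J3 F ω) := Nat.finite_of_card_ne_zero (by rw [card_J3 hG]; decide)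
  obtain ⟨x, y, hS⟩ := setup_three hG
  exact (PLocal.card_ker_le hS hσ hK
    (pow_dvd_bound hG hσ (by norm_num) hK 5 206720 ((card_J3 hG).trans (by norm_num)) (by norm_num))
    Three.rows Three.rows_ok [] (fun _ _ _ x hx => by simp at hx) Three.gens Three.express
    Three.bound_ok).trans (by decide)

theorem two_le {Γ : Type u} [Group Γ] [Finite Γ] {σ : Γ →* J3 F ω}
    (hσ : Cfsg.IsStemExtension σ) (hK : IsPGroup 2 σ.ker) : Nat.card σ.ker ≤ 1 := by
  have : Fact (Nat.Prime 2) := ⟨by norm_num⟩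
  have : Finite (J3 F ω) := Nat.finite_of_card_ne_zero (by rw [card_J3 hG]; decide)
  obtain ⟨hA, hB, hwA, hwB, eA, eB⟩ := Two.gens_ok
  obtain ⟨x, hx⟩ := exists_rep hG hwA eA
  obtain ⟨y, hy⟩ := exists_rep hG hwB eB
  have hsep := Two.sep_ok
  simp only [sepOK, List.all_eq_true, List.mem_range] at hsep
  have hS : PLocal.Setup Two.graph Two.loc 2 x y := by
    refine setup_of_checks hG hx hy hA hB Two.rels_ok (allOK_single Two.chunk_all)
      Two.shape_ok Two.reps_ok (fun v hv e he hne => ?_) Two.close_ok (k := 26163)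
      ((card_J3 hG).trans rfl) (by norm_num)
    have h := hsep v hv e he
    rw [Nat.zero_add, if_neg (by simpa using hne)] at h
    simpa using h
  refine (PLocal.card_ker_le hS hσ hK
    (pow_dvd_bound hG hσ (by norm_num) hK 7 392445 ((card_J3 hG).trans (by norm_num)) (by norm_num))
    Two.rows Two.rows_ok [PLocal.pairVec Two.graph (Two.wx ++ Two.wy, Two.wy ++ Two.wx)]
    (fun a b hl z hz => ?_) Two.gens Two.express Two.bound_ok).trans (by decide)
  rw [List.mem_singleton] at hz
  subst hz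
  refine hl.pair_psi hS Two.pair_ok ?_
  obtain ⟨hcg, hch, hgs, hglen, hlet⟩ := Two.conj_ok
  obtain ⟨g, hg⟩ := exists_rep hG hgs rfl
  have lenA : Two.matA.length = 9 := by
    have := hA; simp only [okM, Bool.and_eq_true, beq_iff_eq] at this; exact this.1
  have lenB : Two.matB.length = 9 := by
    have := hB; simp only [okM, Bool.and_eq_true, beq_iff_eq] at this; exact this.1
  have w := fun l => IsRep.word hG hx hy lenA lenB l
  have len := evM_length Two.matA Two.matB
  simp only [List.all_eq_true, Nat.blt_eq, List.mem_append] at hlet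
  have hmem : ∀ l : List ℕ, (∀ c ∈ l, c < 2) → ev x y l ∈ Subgroup.closure {x, y} := by
    intro l
    induction l with
    | nil => intro _; rw [ev_nil]; exact one_mem _
    | cons c l ih =>
      intro hl'
      rw [ev_cons]
      refine mul_mem (Subgroup.subset_closure ?_) (ih fun d hd => hl' d (List.mem_cons_of_mem _ hd))
      rw [letter]; split_ifs <;> simp
  have hcomm : Commute (ev a b Two.wx) (ev a b Two.wy) := by
    refine PLocal.commute_pair (σ := σ) hσ.1 hσ.2.1 hK hl.pow_a hS.hma hl.pow_b hS.hnb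
      (g := g) (t := ev x y Two.wt) (h := ev x y Two.wh) ?_ ?_ ?_ ?_ ?_
    · rw [hl.map_a]
      exact ((w _).mul hG hx (len _) lenA).eq hG (hx.mul hG (w _) lenA (len _)) Two.t_commute.1
    · rw [hl.map_b]
      exact ((w _).mul hG hy (len _) lenB).eq hG (hy.mul hG (w _) lenB (len _)) Two.t_commute.2
    · rw [hl.map_a, hl.map_b]
      exact hmem _ fun c hc => hlet c (Or.inr hc)
    · rw [map_ev, hl.map_a, hl.map_b, mul_inv_eq_iff_eq_mul]
      exact (hg.mul hG (w _) hglen (len _)).eq hG ((w _).mul hG hg (len _) hglen) hcg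
    · rw [map_ev, hl.map_a, hl.map_b, mul_inv_eq_iff_eq_mul]
      exact (hg.mul hG (w _) hglen (len _)).eq hG ((w _).mul hG hg (len _) hglen) hch
  rw [ev_append, ev_append]
  exact hcomm.eq

theorem prime_ne {Γ : Type u} [Group Γ] [Finite Γ] {σ : Γ →* J3 F ω}
    (hσ : Cfsg.IsStemExtension σ) {p : ℕ} (hp : p.Prime) (hdvd : p ∣ Nat.card σ.ker) : p = 3 := by
  have : Fact p.Prime := ⟨hp⟩
  have : Finite (J3 F ω) := Nat.finite_of_card_ne_zero (by rw [card_J3 hG]; decide)
  obtain ⟨z, hz⟩ := exists_prime_orderOf_dvd_card' p hdvd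
  have hzp : orderOf (z : Γ) = p := by rwa [Subgroup.orderOf_coe]
  have hdG : p ∣ 50232960 := by
    have h1 := pow_card_eq_one hσ (commutator_J3 hG) (z : Γ)
    rw [card_J3 hG] at h1
    exact hzp ▸ orderOf_dvd_of_pow_eq_one h1
  have hle : p ∣ 2 ^ 7 * (3 ^ 5 * (5 * (17 * 19))) := hdG
  have hcases : p = 2 ∨ p = 3 ∨ p = 5 ∨ p = 17 ∨ p = 19 := by
    rcases hp.dvd_mul.mp hle with h | h
    · exact Or.inl ((Nat.prime_dvd_prime_iff_eq hp (by norm_num)).mp (hp.dvd_of_dvd_pow h))
    rcases hp.dvd_mul.mp h with h | h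
    · exact Or.inr (Or.inl ((Nat.prime_dvd_prime_iff_eq hp (by norm_num)).mp (hp.dvd_of_dvd_pow h)))
    rcases hp.dvd_mul.mp h with h | h
    · exact Or.inr (Or.inr (Or.inl ((Nat.prime_dvd_prime_iff_eq hp (by norm_num)).mp h)))
    rcases hp.dvd_mul.mp h with h | h
    · exact Or.inr (Or.inr (Or.inr (Or.inl ((Nat.prime_dvd_prime_iff_eq hp (by norm_num)).mp h))))
    · exact Or.inr (Or.inr (Or.inr (Or.inr ((Nat.prime_dvd_prime_iff_eq hp (by norm_num)).mp h))))
  rcases hcases with rfl | rfl | h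
  · -- pass to a kernel of order a power of two
    exfalso
    have hKc : ∀ x y : σ.ker, x * y = y * x := fun x y =>
      Subtype.ext (Subgroup.mem_center_iff.mp (hσ.2.1 y.2) x.1)
    let : CommGroup σ.ker := { (inferInstance : Group σ.ker) with mul_comm := hKc }
    obtain ⟨S⟩ : Nonempty (Sylow 2 σ.ker) := Sylow.nonempty
    obtain ⟨M, hM⟩ := Subgroup.exists_left_complement'_of_coprime S.card_coprime_index
    let Z : Subgroup Γ := M.map σ.ker.subtype
    have hZc : Z ≤ Subgroup.center Γ := (Subgroup.map_subtype_le _).trans hσ.2.1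
    have : Z.Normal := ⟨fun n hn g => by
      rw [Subgroup.mem_center_iff.mp (hZc hn) g, mul_inv_cancel_right]; exact hn⟩
    let τ : Γ ⧸ Z →* J3 F ω := QuotientGroup.lift Z σ (Subgroup.map_subtype_le _)
    have hτmk : ∀ g, τ (QuotientGroup.mk' Z g) = σ g := fun g => rfl
    have hτ : Cfsg.IsStemExtension τ := by
      refine ⟨fun g => ?_, ?_, ?_⟩
      · obtain ⟨x, rfl⟩ := hσ.1 g
        exact ⟨_, hτmk x⟩
      · intro q hq
        obtain ⟨g, rfl⟩ := QuotientGroup.mk'_surjective Z q
        refine Subgroup.mem_center_iff.mpr fun r => ?_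
        obtain ⟨s, rfl⟩ := QuotientGroup.mk'_surjective Z r
        rw [← map_mul, ← map_mul, Subgroup.mem_center_iff.mp (hσ.2.1 hq) s]
      · intro q hq
        obtain ⟨g, rfl⟩ := QuotientGroup.mk'_surjective Z q
        have := Subgroup.mem_map_of_mem (QuotientGroup.mk' Z) (hσ.2.2 hq)
        rw [commutator_def, Subgroup.map_commutator] at this
        exact Subgroup.commutator_mono le_top le_top this
    have hmap : τ.ker = σ.ker.map (QuotientGroup.mk' Z) := by
      ext q
      constructor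
      · intro hq
        obtain ⟨g, rfl⟩ := QuotientGroup.mk'_surjective Z q
        exact ⟨g, hq, rfl⟩
      · rintro ⟨g, hg, rfl⟩
        exact hg
    let φ : σ.ker →* τ.ker :=
      ((QuotientGroup.mk' Z).comp σ.ker.subtype).codRestrict τ.ker fun x => x.2
    have hφs : Function.Surjective φ := by
      rintro ⟨q, hq⟩
      rw [hmap] at hq
      obtain ⟨g, hg, rfl⟩ := hq
      exact ⟨⟨g, hg⟩, rfl⟩
    have hφk : φ.ker = M := by
      ext x
      rw [MonoidHom.mem_ker]
      constructor
      · intro hx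
        have : (x : Γ) ∈ Z := (QuotientGroup.eq_one_iff _).mp (congrArg Subtype.val hx)
        obtain ⟨y, hy, e⟩ := this
        rwa [← Subtype.ext e]
      · intro hx
        exact Subtype.ext ((QuotientGroup.eq_one_iff _).mpr ⟨x, hx, rfl⟩)
    have hcard : Nat.card τ.ker = Nat.card (S : Subgroup σ.ker) := by
      rw [← Nat.card_congr (QuotientGroup.quotientKerEquivOfSurjective φ hφs).toEquiv]
      show φ.ker.index = _
      rw [hφk, hM.symm.index_eq_card]
    obtain ⟨r, hr⟩ := IsPGroup.iff_card.mp S.isPGroup'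
    have h2 := two_le hG hτ (IsPGroup.of_card (n := r) (hcard.trans hr))
    rw [hcard] at h2
    have hdS : 2 ∣ Nat.card (S : Subgroup σ.ker) := S.dvd_card_of_dvd_card hdvd
    have := Nat.le_of_dvd Nat.card_pos hdS
    omega
  · rfl
  · exfalso
    refine H64.not_dvd_card_ker_of_isCyclic hσ (fun Q => ?_) hdvd
    have hc : Nat.card Q = p := by
      rw [Q.card_eq_multiplicity, card_J3 hG]
      rcases h with rfl | rfl | rfl
      · rw [show (50232960 : ℕ) = 5 ^ 1 * 10046592 by norm_num,
          Nat.factorization_mul (by norm_num) (by norm_num), Finsupp.add_apply,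
          Nat.Prime.factorization_pow (by norm_num), Finsupp.single_eq_same,
          Nat.factorization_eq_zero_of_not_dvd (by norm_num), add_zero, pow_one]
      · rw [show (50232960 : ℕ) = 17 ^ 1 * 2954880 by norm_num,
          Nat.factorization_mul (by norm_num) (by norm_num), Finsupp.add_apply,
          Nat.Prime.factorization_pow (by norm_num), Finsupp.single_eq_same,
          Nat.factorization_eq_zero_of_not_dvd (by norm_num), add_zero, pow_one]
      · rw [show (50232960 : ℕ) = 19 ^ 1 * 2643840 by norm_num,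
          Nat.factorization_mul (by norm_num) (by norm_num), Finsupp.add_apply,
          Nat.Prime.factorization_pow (by norm_num), Finsupp.single_eq_same,
          Nat.factorization_eq_zero_of_not_dvd (by norm_num), add_zero, pow_one]
    exact isCyclic_of_prime_card hc

theorem card_ker_le_three {Γ : Type u} [Group Γ] [Finite Γ] {σ : Γ →* J3 F ω}
    (hσ : Cfsg.IsStemExtension σ) : Nat.card σ.ker ≤ 3 :=
  three_le hG hσ (IsPGroup.of_card (n := (Nat.card σ.ker).primeFactorsList.length)
    (Nat.eq_prime_pow_of_unique_prime_dvd Nat.card_pos.ne' fun hd hdd => prime_ne hG hσ hd hdd))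

theorem center_le_commutator :
    Subgroup.center ↥(threeJ3 F ω) ≤ commutator ↥(threeJ3 F ω) := by
  obtain ⟨a, ea⟩ := exists_el hG (g7_mem_hSet hG (show 0 < 7 by norm_num))
  obtain ⟨d, ed⟩ := exists_el hG (g7_mem_hSet hG (show 6 < 7 by norm_num))
  have key : ∀ k, sameM (mm (g7 0) (g7 6)) (scal (mm (g7 6) (g7 0)) k) = true →
      ((⁅a, d⁆ : ↥(threeJ3 F ω)).1 : Matrix F9 F9 F) * (((d * a : ↥(threeJ3 F ω))).1 : Matrix F9 F9 F) =
        toMat ω (scal (mm (g7 6) (g7 0)) k) := by
    intro k hk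
    rw [← mat_mul hG, show ⁅a, d⁆ * (d * a) = a * d by rw [commutatorElement_def]; group,
      mat_mul hG, ea, ed, ← toMat_mm hG, toMat_of_sameM hG hk]
  have h1 := key 1 (by decide +kernel)
  rw [scal, scal, toMat_map_mw hG, toMat_mm hG, ← ed, ← ea, ← mat_mul hG] at h1
  have hc : ((⁅a, d⁆ : ↥(threeJ3 F ω)).1 : Matrix F9 F9 F) = ω • (1 : Matrix F9 F9 F) := by
    have := congrArg (· * (((d * a)⁻¹ : ↥(threeJ3 F ω)).1 : Matrix F9 F9 F)) h1
    simp only [smul_mul_assoc, ← mat_mul hG, mul_inv_cancel_right, mul_inv_cancel] at this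
    exact this
  have hz : ⁅a, d⁆ ∈ Subgroup.center ↥(threeJ3 F ω) := mem_center_of_scalar hG hc
  have hne : ⁅a, d⁆ ≠ 1 := fun h => by
    rw [h] at hc
    have := congrFun (congrFun hc 0) 0
    simp at this
    exact w_ne_one hG this.symm
  intro z hzz
  have : Fact (Nat.Prime 3) := ⟨by norm_num⟩
  obtain ⟨k, hk⟩ := mem_zpowers_of_prime_card (card_center hG)
    (g := (⟨_, hz⟩ : ↥(Subgroup.center ↥(threeJ3 F ω)))) (g' := ⟨z, hzz⟩)
    (fun h => hne (congrArg Subtype.val h))
  have hk' := congrArg Subtype.val hk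
  simp only [SubgroupClass.coe_zpow] at hk'
  rw [← hk']
  exact zpow_mem (Subgroup.commutator_mem_commutator (Subgroup.mem_top a) (Subgroup.mem_top d)) k

theorem multiplier_J3 : Cfsg.HasCyclicSchurMultiplier (J3 F ω) 3 := by
  have : Finite ↥(threeJ3 F ω) := Nat.finite_of_card_ne_zero (by rw [card_threeJ3 hG]; decide)
  have : Fact (Nat.Prime 3) := ⟨by norm_num⟩
  have hk := QuotientGroup.ker_mk' (Subgroup.center ↥(threeJ3 F ω))
  refine H82.hasCyclicSchurMultiplier_of_card
    (σ := QuotientGroup.mk' (Subgroup.center ↥(threeJ3 F ω))) ⟨QuotientGroup.mk'_surjective _,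
      hk.le, hk.trans_le (center_le_commutator hG)⟩ ?_ ?_ fun Δ _ _ τ hτ => card_ker_le_three hG hτ
  · exact isCyclic_of_prime_card (p := 3) (by rw [hk, card_center hG])
  · rw [hk, card_center hG]

end

end Cfsg.Agent.H14.J3Mult
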