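import Cfsg.Agent.H15.J3.Simple
import Cfsg.Agent.H15.J3.Fast
import Cfsg.Agent.H12.CentralExt.Core

/-!
Elements of J3 given by packed matrices, and kernel-computable tests on them.
-/

set_option autoImplicit false

namespace Cfsg.Agent.H14.J3Mult

open Cfsg.Spor Matrix Cfsg.Agent.H15.J3 Cfsg.Agent.H12

/-- A packed matrix is well formed. -/
def okM (M : List ℕ) : Bool := (M.length == 9) && M.all fun c => Nat.blt c (2 ^ 18)

/-- Scalar multiples of a packed matrix. -/
def scal (M : List ℕ) : ℕ → List ℕ
  | 0 => M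
  | k + 1 => (scal M k).map mw

/-- Equality of the nine columns. -/
def sameM (M N : List ℕ) : Bool := (List.range 9).all fun k => M.getD k 0 == N.getD k 0

/-- Equality up to a scalar. -/
def eqScal (M N : List ℕ) : Bool :=
  sameM M N || sameM M (scal N 1) || sameM M (scal N 2)

/-- A word evaluated on packed matrices. -/
noncomputable def evM (A B : List ℕ) : List ℕ → List ℕ
  | [] => idM
  | c :: w => mmF (bif c == 0 then A else B) (evM A B w)

theorem idM_length : idM.length = 9 := rfl

theorem mmF_length (M : List ℕ) : ∀ N : List ℕ, (mmF M N).length = N.length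
  | [] => rfl
  | c :: N => by
    have h : mmF M (c :: N) = Cfsg.Agent.H16.forceNat (appF M c) (fun x => x :: mmF M N) := rfl
    rw [h, Cfsg.Agent.H16.forceNat_eq, List.length_cons, mmF_length M N, List.length_cons]

theorem evM_length (A B : List ℕ) : ∀ w, (evM A B w).length = 9
  | [] => rfl
  | c :: w => by rw [evM, mmF_length, evM_length A B w]

section

variable {F : Type*} [Field F] [Fintype F] {ω : F} (hG : Good F ω)

variable (F ω) in
omit [Fintype F] in
/-- An element of J3 with a given packed matrix. -/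
def IsRep (M : List ℕ) (x : J3 F ω) : Prop :=
  ∃ g : ↥(threeJ3 F ω), QuotientGroup.mk' (Subgroup.center ↥(threeJ3 F ω)) g = x ∧
    (g.1 : Matrix F9 F9 F) = toMat ω M

include hG

theorem toMat_of_sameM {M N : List ℕ} (h : sameM M N = true) : toMat ω M = toMat ω N := by
  simp only [sameM, List.all_eq_true, List.mem_range, beq_iff_eq] at h
  ext w z
  rw [toMat_apply, toMat_apply, h _ (idx_lt z)]

theorem toMat_map_mw (M : List ℕ) : toMat ω (M.map mw) = ω • toMat ω M := by
  ext w z
  rw [Matrix.smul_apply, toMat_apply, toMat_apply, List.getD_eq_getElem?_getD, List.getElem?_map]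
  cases h : M[idx z]? with
  | none =>
    rw [List.getD_eq_getElem?_getD, h]
    simp [val_zero]
  | some c =>
    rw [List.getD_eq_getElem?_getD, h]
    simp [val_mw hG]

theorem exists_scal {M N : List ℕ} (h : eqScal M N = true) :
    ∃ c : F, toMat ω M = c • toMat ω N := by
  simp only [eqScal, Bool.or_eq_true] at h
  rcases h with (h | h) | h
  · exact ⟨1, by rw [one_smul]; exact toMat_of_sameM hG h⟩
  · exact ⟨ω, by rw [toMat_of_sameM hG h, scal, scal, toMat_map_mw hG]⟩
  · exact ⟨ω * ω, by
      rw [toMat_of_sameM hG h, scal, scal, scal, toMat_map_mw hG, toMat_map_mw hG, smul_smul]⟩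

theorem IsRep.one : IsRep F ω idM (1 : J3 F ω) :=
  ⟨1, map_one _, by rw [toMat_idM hG]; rfl⟩

theorem IsRep.mul {M N : List ℕ} {x y : J3 F ω} (hx : IsRep F ω M x) (hy : IsRep F ω N y)
    (hM : M.length = 9) (hN : N.length = 9) : IsRep F ω (mmF M N) (x * y) := by
  obtain ⟨g, rfl, eg⟩ := hx
  obtain ⟨k, rfl, ek⟩ := hy
  exact ⟨g * k, map_mul _ _ _, by rw [mat_mul hG, eg, ek, mmF_eq hM hN, toMat_mm hG]⟩

theorem IsRep.eq {M N : List ℕ} {x y : J3 F ω} (hx : IsRep F ω M x) (hy : IsRep F ω N y)
    (h : eqScal M N = true) : x = y := by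
  obtain ⟨g, rfl, eg⟩ := hx
  obtain ⟨k, rfl, ek⟩ := hy
  obtain ⟨c, hc⟩ := exists_scal hG h
  refine (QuotientGroup.eq_iff_div_mem.mpr ?_)
  refine mem_center_of_scalar hG (c := c) ?_
  rw [div_eq_mul_inv, mat_mul hG, eg, hc, ← ek, smul_mul_assoc]
  congr 1
  exact Units.mul_inv k.1

theorem val_getD_inj {M N : List ℕ} (hM : okM M = true) (hN : okM N = true)
    (h : toMat ω M = toMat ω N) : sameM M N = true := by
  have bd : ∀ {L : List ℕ}, okM L = true → ∀ k < 9, L.getD k 0 < 2 ^ 18 := by
    intro L hL k hk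
    simp only [okM, Bool.and_eq_true, beq_iff_eq, List.all_eq_true, Nat.blt_eq] at hL
    rw [List.getD_eq_getElem _ _ (by omega)]
    exact hL.2 _ (List.getElem_mem _)
  simp only [sameM, List.all_eq_true, List.mem_range, beq_iff_eq]
  intro k hk
  refine val_inj hG (bd hM k hk) (bd hN k hk) (funext fun w => ?_)
  have := congrFun (congrFun h w) (pt k)
  rwa [toMat_apply, toMat_apply, idx_pt hk] at this

/-- A packed matrix that is no scalar represents a nontrivial element. -/
theorem IsRep.ne_one {M : List ℕ} {x : J3 F ω} (hx : IsRep F ω M x) (hM : okM M = true)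
    (h : eqScal M idM = false) : x ≠ 1 := by
  intro h1
  obtain ⟨g, rfl, eg⟩ := hx
  rw [QuotientGroup.mk'_apply, QuotientGroup.eq_one_iff] at h1
  obtain ⟨c, hc, ec⟩ := center_scalar hG h1
  have hc3 : c = 1 ∨ c = ω ∨ c = ω * ω := by
    obtain ⟨v, -, ev⟩ := val_surj hG (fun _ => c)
    have := congrFun ev (pt 0)
    simp only [val, cf] at this
    rw [← this] at hc ⊢
    clear this ev
    generalize v.testBit (idx (pt 0)) = a at hc ⊢
    generalize v.testBit (9 + idx (pt 0)) = b at hc ⊢
    cases a <;> cases b <;> simp [w_sq hG, add_comm] at hc ⊢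
  have key : ∀ N : List ℕ, okM N = true → toMat ω N = c • (1 : Matrix F9 F9 F) →
      sameM M N = true := fun N hN hN' => val_getD_inj hG hM hN (by rw [← eg, ec, hN'])
  have ok1 : okM (scal idM 1) = true ∧ okM (scal idM 2) = true := by decide +kernel
  simp only [eqScal, Bool.or_eq_false_iff] at h
  rcases hc3 with rfl | rfl | rfl
  · exact absurd (key idM (by decide +kernel) (by rw [toMat_idM hG, one_smul])) (by simp [h.1.1])
  · exact absurd (key _ ok1.1 (by rw [scal, scal, toMat_map_mw hG, toMat_idM hG]))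
      (by simp [h.1.2])
  · exact absurd (key _ ok1.2 (by
      rw [scal, scal, scal, toMat_map_mw hG, toMat_map_mw hG, toMat_idM hG, smul_smul]))
      (by simp [h.2])

theorem exists_rep {w : List ℕ} (hw : small 7 w = true) {M : List ℕ} (hM : ev Data.gen7 w = M) :
    ∃ x : J3 F ω, IsRep F ω M x := by
  obtain ⟨g, eg⟩ := exists_el hG (ev_mem_hSet hG (le_refl 7) hw)
  exact ⟨QuotientGroup.mk' _ g, g, rfl, by rw [eg, hM]⟩

theorem IsRep.word {A B : List ℕ} {x y : J3 F ω} (hx : IsRep F ω A x) (hy : IsRep F ω B y)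
    (hA : A.length = 9) (hB : B.length = 9) :
    ∀ w, IsRep F ω (evM A B w) (CExt.ev x y w)
  | [] => by rw [CExt.ev_nil]; exact IsRep.one hG
  | c :: w => by
    rw [CExt.ev_cons, evM]
    by_cases hc : c = 0
    · subst hc
      rw [show CExt.letter x y 0 = x from if_pos rfl]
      exact hx.mul hG (IsRep.word hx hy hA hB w) hA (evM_length A B w)
    · rw [show CExt.letter x y c = y from if_neg hc, show (c == 0) = false by simpa using hc]
      exact hy.mul hG (IsRep.word hx hy hA hB w) hB (evM_length A B w)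

end

end Cfsg.Agent.H14.J3Mult
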