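import Cfsg.Agent.H14.J3Mult.Rep
import Cfsg.Agent.H14.PLocal.Cert
import Cfsg.Agent.H14.PLocal.Order

/-!
The tests that turn a certificate into facts about a subgroup of J3.
-/

set_option autoImplicit false

namespace Cfsg.Agent.H14.J3Mult

open Cfsg.Spor Cfsg.Agent.H15.J3 Cfsg.Agent.H12.CExt Cfsg.Agent.H14

/-- A matrix from a list of nine entries, evaluated. -/
noncomputable def repsOK (D : Graph) (A B : List ℕ) (R : ℕ → List ℕ) : Bool :=
  sameM (R 0) idM && okM (R 0) &&
  (List.range D.n).all fun v =>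
    if v == 0 then true
    else Nat.blt (D.par v).1 v && okM (R v) &&
      sameM (R v) (mmF (R (D.par v).1) (bif (D.par v).2 == 0 then A else B))

/-- Powers of a matrix. -/
noncomputable def powM (B : List ℕ) : ℕ → List ℕ
  | 0 => idM
  | k + 1 => mmF (powM B k) B

/-- No nontrivial coordinate gives the identity. -/
noncomputable def sepOK (D : Graph) (B : List ℕ) (R : ℕ → List ℕ) (lo len : ℕ) : Bool :=
  (List.range len).all fun i => (List.range D.nb).all fun e =>
    if lo + i == 0 && e == 0 then true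
    else okM (mmF (powM B e) (R (lo + i))) && !eqScal (mmF (powM B e) (R (lo + i))) idM

/-- All relators hold. -/
noncomputable def relsOK (D : Graph) (A B : List ℕ) : Bool :=
  D.rels.all fun r => (r.all fun c => Nat.blt c 2) && eqScal (evM A B r) idM

/-- Shape of a certificate. -/
noncomputable def shapeOK (D : Graph) (L : PLocal.Local) (p : ℕ) : Bool :=
  Nat.blt 0 D.n && Nat.blt 0 D.nb && Nat.blt 0 D.N &&
  (D.rels.getD L.ja [] == List.replicate L.ma 0) && Nat.blt L.ja D.rels.length &&
  (D.rels.getD D.jb [] == List.replicate D.nb 1) && Nat.blt D.jb D.rels.length &&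
  !(L.ma % p == 0) && !(D.nb % p == 0) && (D.N % D.nb == 0) && (D.N % L.q == 0)

theorem powM_length (B : List ℕ) (hB : B.length = 9) : ∀ k, (powM B k).length = 9
  | 0 => rfl
  | k + 1 => by rw [powM, mmF_length, hB]

section

variable {F : Type*} [Field F] [Fintype F] {ω : F} (hG : Good F ω)
include hG

theorem IsRep.pow {B : List ℕ} {y : J3 F ω} (hy : IsRep F ω B y) (hB : B.length = 9) :
    ∀ k : ℕ, IsRep F ω (powM B k) (y ^ k)
  | 0 => by rw [pow_zero]; exact IsRep.one hG
  | k + 1 => by
    rw [pow_succ]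
    exact (IsRep.pow hy hB k).mul hG hy (powM_length B hB k) hB

theorem setup_of_checks {p : ℕ} [Fact p.Prime] {D : Graph} {L : PLocal.Local} {A B : List ℕ}
    {R : ℕ → List ℕ} {x y : J3 F ω} (hx : IsRep F ω A x) (hy : IsRep F ω B y)
    (hA : okM A = true) (hB : okM B = true) (hrels : relsOK D A B = true)
    (hok : AllOK D) (hshape : shapeOK D L p = true) (hreps : repsOK D A B R = true)
    (hsep : ∀ v < D.n, ∀ e < D.nb, ¬(v = 0 ∧ e = 0) →
      okM (mmF (powM B e) (R v)) = true ∧ eqScal (mmF (powM B e) (R v)) idM = false)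
    (hclose : PLocal.powersClose D L.ja = true) {k : ℕ}
    (hk : Nat.card (J3 F ω) = D.nb * D.n * k) (hkp : ¬ p ∣ k) :
    PLocal.Setup D L p x y := by
  have lenA : A.length = 9 := by simp only [okM, Bool.and_eq_true, beq_iff_eq] at hA; exact hA.1
  have lenB : B.length = 9 := by simp only [okM, Bool.and_eq_true, beq_iff_eq] at hB; exact hB.1
  simp only [shapeOK, Bool.and_eq_true, beq_iff_eq, Nat.blt_eq, Bool.not_eq_true',
    beq_eq_false_iff_ne] at hshape
  obtain ⟨⟨⟨⟨⟨⟨⟨⟨⟨⟨hn, hnb⟩, hN⟩, hja⟩, hja'⟩, hjb⟩, hjb'⟩, hma⟩, hnbp⟩, hd1⟩, hd2⟩ := hshape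
  simp only [relsOK, List.all_eq_true, Bool.and_eq_true, Nat.blt_eq] at hrels
  have hrel : ∀ r ∈ D.rels, ev x y r = 1 := fun r hr =>
    (IsRep.word hG hx hy lenA lenB r).eq hG (IsRep.one hG) (hrels r hr).2
  simp only [repsOK, Bool.and_eq_true, List.all_eq_true, List.mem_range] at hreps
  obtain ⟨⟨h0, h0'⟩, hpar⟩ := hreps
  have hrep : ∀ v < D.n, ∃ M, M.length = 9 ∧ sameM (R v) M = true ∧
      IsRep F ω M (tval D x y v) := by
    intro v
    induction v using Nat.strong_induction_on with
    | _ v ih =>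
      intro hv
      rcases Nat.eq_zero_or_pos v with rfl | hpos
      · exact ⟨idM, rfl, h0, by rw [tval_zero]; exact IsRep.one hG⟩
      · have h := hpar v hv
        rw [if_neg (by simp; omega)] at h
        simp only [Bool.and_eq_true, Nat.blt_eq] at h
        obtain ⟨⟨hlt, hokv⟩, hsame⟩ := h
        obtain ⟨M, hM9, hM, hMr⟩ := ih _ hlt (by omega)
        refine ⟨mmF (R (D.par v).1) (bif (D.par v).2 == 0 then A else B), ?_, hsame, ?_⟩
        · rw [mmF_length]; cases (D.par v).2 == 0 <;> simp [lenA, lenB]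
        · rw [tval_of_par D x y hpos hlt]
          have hokp : okM (R (D.par v).1) = true := by
            rcases Nat.eq_zero_or_pos (D.par v).1 with e | e
            · rw [e]; exact h0'
            · have h := hpar _ (show (D.par v).1 < D.n by omega)
              rw [if_neg (by simp; omega)] at h
              simp only [Bool.and_eq_true] at h
              exact h.1.2
          have hlen : (R (D.par v).1).length = 9 := by
            simp only [okM, Bool.and_eq_true, beq_iff_eq] at hokp; exact hokp.1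
          have hRr : IsRep F ω (R (D.par v).1) (tval D x y (D.par v).1) := by
            obtain ⟨g, hg1, hg2⟩ := hMr
            exact ⟨g, hg1, hg2.trans (toMat_of_sameM hG hM).symm⟩
          by_cases hc : (D.par v).2 = 0
          · rw [hc, show letter x y 0 = x from if_pos rfl]
            exact hRr.mul hG hx hlen lenA
          · rw [show letter x y (D.par v).2 = y from if_neg hc,
              show ((D.par v).2 == 0) = false by simpa using hc]
            exact hRr.mul hG hy hlen lenB
  have hsep' : ∀ e < D.nb, ∀ u < D.n, y ^ e * tval D x y u = 1 → e = 0 ∧ u = 0 := by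
    intro e he u hu h
    by_contra hne
    obtain ⟨h1, h2⟩ := hsep u hu e he (fun hh => hne ⟨hh.2, hh.1⟩)
    obtain ⟨M, hM9, hM, g, hg1, hg2⟩ := hrep u hu
    have hR : IsRep F ω (R u) (tval D x y u) := ⟨g, hg1, hg2.trans (toMat_of_sameM hG hM).symm⟩
    have hlenR : (R u).length = 9 := by
      simp only [okM, Bool.and_eq_true, beq_iff_eq, mmF_length] at h1
      exact h1.1
    exact ((IsRep.pow hG hy lenB e).mul hG hR (powM_length B lenB e) hlenR).ne_one hG h1 h2 h
  have hd : D.nb ∣ D.N := Nat.dvd_of_mod_eq_zero hd1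
  have hgb : y ^ D.nb = 1 := by
    rw [← ev_replicate_one x y, ← hjb]
    refine hrel _ ?_
    rw [List.getD_eq_getElem _ _ hjb']
    exact List.getElem_mem hjb'
  have hma0 : 0 < L.ma := by
    rcases Nat.eq_zero_or_pos L.ma with h | h
    · rw [h, Nat.zero_mod] at hma; exact absurd rfl hma
    · exact h
  have hcard := PLocal.card_closure hrel hok ⟨hn, hnb⟩ hma0 hja hjb hsep' (by
    obtain ⟨t, ht⟩ := hd
    rw [ht, pow_mul, hgb, one_pow]) hclose
  refine ⟨hrel, hok, fun r hr => (hrels r hr).1, ⟨hn, hnb, hN⟩, ⟨hja, hja'⟩,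
    ⟨hjb, hjb'⟩, fun h => hma (Nat.mod_eq_zero_of_dvd h),
    fun h => hnbp (Nat.mod_eq_zero_of_dvd h), ⟨hd, Nat.dvd_of_mod_eq_zero hd2⟩, ?_, hsep'⟩
  have h := (Subgroup.closure ({x, y} : Set (J3 F ω))).card_mul_index
  rw [hcard, hk] at h
  rwa [Nat.eq_of_mul_eq_mul_left (Nat.mul_pos hnb hn) h]

end

end Cfsg.Agent.H14.J3Mult
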