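import Cfsg.Agent.H14.J3Mult.Tests
import Cfsg.Agent.H14.J3Mult.TwoData

/-!
Kernel checks of the certificate for the 2-part of the multiplier of J3.
-/

set_option autoImplicit false
set_option maxRecDepth 100000

namespace Cfsg.Agent.H14.J3Mult.Two

open Cfsg.Agent.H15.J3 Cfsg.Agent.H14.PLocal
open Cfsg.Agent.H12.CExt (chunkOK)

theorem chunk_all : chunkOK graph 0 384 = true := by decide +kernel

theorem gens_ok : okM matA = true ∧ okM matB = true ∧ small 7 wordA = true ∧
    small 7 wordB = true ∧ ev Data.gen7 wordA = matA ∧ ev Data.gen7 wordB = matB := by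
  decide +kernel

theorem rels_ok : relsOK graph matA matB = true := by decide +kernel

theorem shape_ok : shapeOK graph loc 2 = true := by decide +kernel

theorem reps_ok : repsOK graph matA matB rep = true := by decide +kernel

theorem sep_ok : sepOK graph matB rep 0 384 = true := by decide +kernel

theorem close_ok : powersClose graph loc.ja = true := by decide +kernel

theorem rows_ok : cycsOK graph rows = true := by decide +kernel

theorem pair_commute : eqScal (evM matA matB (wx ++ wy)) (evM matA matB (wy ++ wx)) = true := by
  decide +kernel

theorem t_commute : eqScal (mmF (evM matA matB wt) matA) (mmF matA (evM matA matB wt)) = true ∧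
    eqScal (mmF (evM matA matB wt) matB) (mmF matB (evM matA matB wt)) = true := by decide +kernel

theorem conj_ok : eqScal (mmF (ev Data.gen7 gW) (evM matA matB wx))
      (mmF (evM matA matB wt) (ev Data.gen7 gW)) = true ∧
    eqScal (mmF (ev Data.gen7 gW) (evM matA matB wy))
      (mmF (evM matA matB wh) (ev Data.gen7 gW)) = true ∧
    small 7 gW = true ∧ (ev Data.gen7 gW).length = 9 ∧
    (List.all (wx ++ wy ++ wt ++ wh) fun c => Nat.blt c 2) = true := by decide +kernel

theorem pair_ok : pairOK graph (wx ++ wy, wy ++ wx) = true := by decide +kernel

theorem bound_ok : PLocal.boundOK graph loc (allVecs graph loc rows [pairVec graph (wx ++ wy, wy ++ wx)]) gens express = true := by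
  decide +kernel

end Cfsg.Agent.H14.J3Mult.Two
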